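import Mathlib
import Cfsg.Prelude.Def_OddOrderLocal
import Cfsg.Agent.H348.FPF
import Cfsg.Agent.OddOrderLocal.PiCore

/-!
# Groups of odd order acting fixed-point-freely (helper548, for S3392)

* `hasFPF` : a group acting fixed-point-freely on a nontrivial finite group acts so on a nontrivial abelian one;
* `odd_fpf` : in odd order it is metacyclic and has no Frobenius complement.
-/

set_option autoImplicit false

namespace Cfsg.Agent.H548.OddFpf

open Subgroup
open scoped Pointwise commutatorElement

/-- every finite group has a copy in `Type` -/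
theorem exists_copy (L : Type*) [Group L] [Finite L] : ∃ (M : Type) (_ : Group M) (_ : Finite M), Nonempty (L ≃* M) := by
  haveI : Small.{0} L := Countable.toSmall L
  exact ⟨Shrink.{0} L, inferInstance, Finite.of_equiv L (equivShrink L), ⟨Shrink.mulEquiv.symm⟩⟩

theorem frobenius_map {L M : Type*} [Group L] [Group M] (e : L ≃* M) {H : Subgroup L}
    (hH : Cfsg.IsFrobeniusComplement H) : Cfsg.IsFrobeniusComplement (H.map e.toMonoidHom) := by
  refine ⟨?_, ?_, fun g hg => ?_⟩
  · rw [Ne, Subgroup.map_eq_bot_iff_of_injective _ e.injective]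
    exact hH.1
  · intro h
    apply hH.2.1
    rw [eq_top_iff]
    intro x _
    have : e x ∈ H.map e.toMonoidHom := by rw [h]; exact mem_top _
    obtain ⟨y, hy, hyx⟩ := this
    rwa [← e.injective hyx]
  · have hg' : e.symm g ∉ H := fun h => hg ⟨e.symm g, h, by simp⟩
    have h1 := hH.2.2 _ hg'
    rw [eq_bot_iff]
    rintro x ⟨⟨y, hy, rfl⟩, hx2⟩
    have hx2' : e.toMonoidHom y ∈ MulAut.conj g • map e.toMonoidHom H := hx2
    clear hx2
    rw [mem_pointwise_smul_iff_inv_smul_mem] at hx2'
    obtain ⟨z, hz, hzx⟩ := hx2'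
    have h2 : y ∈ H ⊓ (MulAut.conj (e.symm g) • H) := by
      refine ⟨hy, ?_⟩
      change y ∈ MulAut.conj (e.symm g) • H
      rw [mem_pointwise_smul_iff_inv_smul_mem]
      have h3 : (MulAut.conj (e.symm g))⁻¹ • y = z := by
        apply e.injective
        change e _ = e.toMonoidHom z
        rw [hzx]
        simp [← map_inv, MulAut.smul_def]
      rw [h3]
      exact hz
    rw [h1, mem_bot] at h2
    rw [h2, map_one]
    exact mem_bot.2 rfl

variable {A X : Type*} [Group A] [Finite A] [Group X] [Finite X] [MulDistribMulAction A X]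

theorem hasFPF [Nontrivial X] (hfpf : ∀ a : A, a ≠ 1 → ∀ x : X, a • x = x → x = 1) : Cfsg.Agent.H348.HasFPF A := by
  by_cases hA : ∃ a : A, a ≠ 1
  · let φ : A →* MulAut X := MulDistribMulAction.toMulAut A X
    let L := X ⋊[φ] A
    haveI : Finite L := Finite.of_equiv _ SemidirectProduct.equivProd.symm
    let H : Subgroup L := (SemidirectProduct.inr : A →* L).range
    have hH : Cfsg.IsFrobeniusComplement H := by
      refine ⟨?_, ?_, fun g hg => ?_⟩
      · intro h
        obtain ⟨a, ha⟩ := hA
        have : (SemidirectProduct.inr a : L) ∈ H := ⟨a, rfl⟩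
        rw [h, mem_bot] at this
        exact ha (SemidirectProduct.inr_injective (by rw [this, map_one]))
      · intro h
        obtain ⟨x, hx⟩ := exists_ne (1 : X)
        have : (SemidirectProduct.inl x : L) ∈ H := by rw [h]; exact mem_top _
        obtain ⟨a, ha⟩ := this
        have h1 := congrArg SemidirectProduct.left ha
        simp at h1
        exact hx h1.symm
      · rw [eq_bot_iff]
        rintro y ⟨⟨b, rfl⟩, hy⟩
        have hy' : (SemidirectProduct.inr b : L) ∈ MulAut.conj g • H := hy
        rw [mem_pointwise_smul_iff_inv_smul_mem] at hy'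
        obtain ⟨c, hc⟩ := hy'
        rw [← map_inv, MulAut.smul_def, MulAut.conj_apply, inv_inv] at hc
        have h1 : (SemidirectProduct.inr b : L) * g = g * SemidirectProduct.inr c := by
          rw [hc]; group
        have h2 := congrArg SemidirectProduct.left h1
        rw [SemidirectProduct.mul_left, SemidirectProduct.mul_left, SemidirectProduct.left_inr,
          SemidirectProduct.right_inr, SemidirectProduct.left_inr, map_one, one_mul, mul_one] at h2
        have h3 : b • g.left = g.left := h2
        by_cases hb : b = 1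
        · rw [hb, map_one]; exact mem_bot.2 rfl
        · exfalso
          have h4 := hfpf b hb _ h3
          apply hg
          exact ⟨g.right, by ext <;> simp [h4]⟩
    obtain ⟨M, hM1, hM2, ⟨e⟩⟩ := exists_copy L
    have h1 := Cfsg.Agent.H348.hasFPF_of_frobeniusComplement _ (frobenius_map e hH)
    refine h1.of_injective ((e.toMonoidHom.comp SemidirectProduct.inr).codRestrict _ fun a => ?_) ?_
    · exact ⟨SemidirectProduct.inr a, ⟨a, rfl⟩, rfl⟩
    · intro a b hab
      have h2 := congrArg Subtype.val hab
      exact SemidirectProduct.inr_injective (e.injective h2)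
  · push Not at hA
    refine ⟨Multiplicative (ZMod 2), inferInstance, inferInstance, inferInstance, 1, fun a ha => absurd (hA a) ha⟩

/-- **LSP-C.** -/
theorem odd_fpf [Nontrivial X] (hodd : Odd (Nat.card A))
    (hfpf : ∀ a : A, a ≠ 1 → ∀ x : X, a • x = x → x = 1) :
    Cfsg.IsMetacyclic A ∧ ∀ H : Subgroup A, ¬ Cfsg.IsFrobeniusComplement H := by
  have hF := hasFPF hfpf
  haveI hZ : IsZGroup A := ⟨fun p hp P => by
    haveI := Fact.mk hp
    by_cases h2 : p = 2
    · subst h2
      have h1 : Nat.card (P : Subgroup A) = 1 := by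
        obtain ⟨n, hn⟩ := (IsPGroup.iff_card).1 P.2
        have h3 : Nat.card (P : Subgroup A) ∣ Nat.card A := card_subgroup_dvd_card _
        have h4 := hodd.of_dvd_nat h3
        rw [hn] at h4 ⊢
        rcases Nat.eq_zero_or_pos n with h5 | h5
        · rw [h5, pow_zero]
        · exact absurd h4 (Nat.not_odd_iff_even.2 ((even_two).pow_of_ne_zero h5.ne'))
      haveI := Finite.card_le_one_iff_subsingleton.1 h1.le
      infer_instance
    · exact hF.isCyclic_sylow h2 P⟩
  refine ⟨⟨_root_.commutator A, inferInstance, IsZGroup.isCyclic_commutator A, ?_⟩, fun H hH => ?_⟩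
  · exact (inferInstance : IsCyclic (Abelianization A))
  -- a normal subgroup of prime order centralised by all elements of prime order
  by_cases hc : _root_.commutator A = ⊥
  · -- `A` is abelian
    have hcomm : ∀ a b : A, a * b = b * a := fun a b => by
      have h1 : ⁅a, b⁆ ∈ _root_.commutator A := commutator_mem_commutator (mem_top a) (mem_top b)
      rw [hc, mem_bot] at h1
      exact commutatorElement_eq_one_iff_mul_comm.1 h1
    obtain ⟨g, hg⟩ : ∃ g, g ∉ H := by
      by_contra h
      push Not at h
      exact hH.2.1 (eq_top_iff.2 fun x _ => h x)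
    apply hH.1
    rw [eq_bot_iff, ← hH.2.2 g hg]
    intro x hx
    refine ⟨hx, ?_⟩
    change x ∈ MulAut.conj g • H
    rw [mem_pointwise_smul_iff_inv_smul_mem, ← map_inv, MulAut.smul_def, MulAut.conj_apply, hcomm g⁻¹ x,
      mul_assoc, mul_inv_cancel, mul_one]
    exact hx
  · obtain ⟨p, hp, hpd⟩ := Nat.exists_prime_and_dvd (n := Nat.card (_root_.commutator A)) (by
      rw [Ne, Subgroup.card_eq_one]; exact hc)
    haveI := Fact.mk hp
    obtain ⟨x, hx⟩ := exists_prime_orderOf_dvd_card' p hpd
    have hcyc : IsCyclic (_root_.commutator A) := IsZGroup.isCyclic_commutator A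
    have hcc : ∀ a b : _root_.commutator A, a * b = b * a :=
      (IsCyclic.isMulCommutative (α := _root_.commutator A)).is_comm.comm
    have hxo : orderOf (x : A) = p := by rw [Subgroup.orderOf_coe, hx]
    have hx1 : (x : A) ≠ 1 := by
      intro h
      rw [h, orderOf_one] at hxo
      exact hp.one_lt.ne hxo
    have hnorm : (zpowers (x : A)).Normal := by
      refine ⟨fun a ha g => ?_⟩
      have h1 : zpowers (g * (x : A) * g⁻¹) = zpowers (x : A) := by
        have h2 : g * (x : A) * g⁻¹ ∈ _root_.commutator A := (inferInstance : (_root_.commutator A).Normal).conj_mem _ x.2 g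
        refine hF.zpowers_eq ?_ ?_
        · exact congrArg Subtype.val (hcc ⟨_, h2⟩ x)
        · rw [← MulAut.conj_apply]
          exact (MulAut.conj g).orderOf_eq _
      obtain ⟨k, rfl⟩ := mem_zpowers_iff.1 ha
      rw [← h1, ← conj_zpow]
      exact zpow_mem (mem_zpowers _) _
    -- an element of prime order commutes with `x`
    have key : ∀ y : A, (orderOf y).Prime → y * x = x * y := by
      intro y hy
      by_cases hyx : y ∈ zpowers (x : A)
      · obtain ⟨k, rfl⟩ := mem_zpowers_iff.1 hyx
        exact ((Commute.refl (x : A)).zpow_left k).eq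
      set K := zpowers (x : A) ⊔ zpowers y with hK
      have h1 : Nat.card K ∣ p * orderOf y := by
        have h2 := Cfsg.Agent.OddOrderLocal.PiCore.card_sup_dvd (zpowers y) (zpowers (x : A))
        rwa [sup_comm, Nat.card_zpowers, Nat.card_zpowers, hxo, mul_comm] at h2
      have h2 : Nat.card (zpowers (x : A)) ∣ Nat.card K := card_dvd_of_le le_sup_left
      rw [Nat.card_zpowers, hxo] at h2
      obtain ⟨m, hm⟩ := h2
      rw [hm] at h1
      have h3 : m ∣ orderOf y := Nat.dvd_of_mul_dvd_mul_left hp.pos h1
      rcases (Nat.dvd_prime hy).1 h3 with h4 | h4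
      · exfalso
        rw [h4, mul_one] at hm
        have h5 : zpowers (x : A) = K := eq_of_le_of_card_ge le_sup_left (by
          rw [hm, Nat.card_zpowers, hxo])
        exact hyx (h5 ▸ (le_sup_right : zpowers y ≤ K) (mem_zpowers y))
      · rw [h4] at hm
        have h5 : IsCyclic K := (hF.subgroup K).isCyclic_of_card hp hy hm
        have h6 := (IsCyclic.isMulCommutative (α := K)).is_comm.comm
          ⟨y, (le_sup_right : zpowers y ≤ K) (mem_zpowers y)⟩
          ⟨(x : A), (le_sup_left : zpowers (x : A) ≤ K) (mem_zpowers _)⟩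
        exact congrArg Subtype.val h6
    -- conclusion
    obtain ⟨q, hq, hqd⟩ := Nat.exists_prime_and_dvd (n := Nat.card H) (by
      rw [Ne, Subgroup.card_eq_one]; exact hH.1)
    haveI := Fact.mk hq
    obtain ⟨y, hy⟩ := exists_prime_orderOf_dvd_card' q hqd
    have hyo : orderOf (y : A) = q := by rw [Subgroup.orderOf_coe, hy]
    have hcom := key y (by rw [hyo]; exact hq)
    have hy1 : (y : A) ≠ 1 := by
      intro h
      rw [h, orderOf_one] at hyo
      exact hq.one_lt.ne hyo
    have hxH : (x : A) ∈ H := by
      by_contra h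
      have h1 := hH.2.2 _ h
      apply hy1
      rw [← mem_bot, ← h1]
      refine ⟨y.2, ?_⟩
      change (y : A) ∈ MulAut.conj (x : A) • H
      rw [mem_pointwise_smul_iff_inv_smul_mem, ← map_inv, MulAut.smul_def, MulAut.conj_apply, inv_inv, mul_assoc,
        hcom, inv_mul_cancel_left]
      exact y.2
    obtain ⟨g, hg⟩ : ∃ g, g ∉ H := by
      by_contra h
      push Not at h
      exact hH.2.1 (eq_top_iff.2 fun x _ => h x)
    apply hx1
    rw [← mem_bot, ← hH.2.2 g hg]
    refine ⟨hxH, ?_⟩
    change (x : A) ∈ MulAut.conj g • H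
    rw [mem_pointwise_smul_iff_inv_smul_mem, ← map_inv, MulAut.smul_def, MulAut.conj_apply]
    have h1 : zpowers (x : A) ≤ H := by rw [zpowers_le]; exact hxH
    exact h1 (hnorm.conj_mem _ (mem_zpowers _) g⁻¹)

end Cfsg.Agent.H548.OddFpf
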